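import Cfsg.Agent.H786.S8.SocTwo

/-!
# S4908, SOC2 for the Mathieu groups of degree 23 and 24 (helper893)
-/

set_option autoImplicit false

namespace Cfsg.Agent.H893.S8

open Cfsg

universe u v

variable {X : Type v} [Group X] [Finite X]

/-- `c = 1`: the squares of at most two primes divide `|X|` -/
theorem soc2_one {D : Set ℕ} (hD : H704.S8.Deg 1 X D) {N m : ℕ} (hN : Nat.card X = N)
    (hm : N = m * (2 ^ 12 * 3 ^ 5) ∨ N * 4 = m * (2 ^ 12 * 3 ^ 5) ∨ N ∣ m * (2 ^ 12 * 3 ^ 5)) (hsq : Squarefree m) :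
    H704.S8.Soc2.{u} D := by
  have hdvd : N ∣ m * (2 ^ 12 * 3 ^ 5) := by
    rcases hm with h | h | h
    · rw [h]
    · rw [← h]; exact Dvd.intro _ rfl
    · exact h
  have key : ∀ {p : ℕ}, p.Prime → (∃ d ∈ D, p ^ 2 ∣ d) → p = 2 ∨ p = 3 := by
    rintro p hp ⟨d, hd, hpd⟩
    rcases hD with rfl | ⟨h, -⟩
    · refine H786.S8.sq_of_mul hp (N := m * (2 ^ 12 * 3 ^ 5)) rfl hsq (hpd.trans ?_)
      refine (H424.DegTools.dvd_card hd).trans ?_
      rw [hN]
      exact hdvd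
    · exact absurd h (by norm_num)
  apply H786.S8.soc2_of_sq
  intro p q r h1 h2 h3 hp hq hr hp' hq' hr'
  rcases key hp hp' with h4 | h4 <;> rcases key hq hq' with h5 | h5 <;> rcases key hr hr' with h6 | h6 <;> omega

theorem sq8855 : Squarefree (5 * 7 * 11 * 23) := by
  have h : ∀ k < 95, k * k ∣ 5 * 7 * 11 * 23 → k = 1 := by decide +kernel
  intro x hx
  have h1 := Nat.le_of_dvd (by norm_num) hx
  have h2 : x < 95 := by nlinarith
  rw [h x h2 hx]
  exact isUnit_one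

/-- **SOC2 for `M23`.** -/
theorem soc2_m23 (hX : Cfsg.IsM23 X) {D : Set ℕ} (hD : H704.S8.Deg 1 X D) : H704.S8.Soc2.{u} D :=
  soc2_one hD hX.2 (Or.inr (Or.inr (by decide +kernel))) sq8855

/-- **SOC2 for `M24`.** -/
theorem soc2_m24 (hX : Cfsg.IsM24 X) {D : Set ℕ} (hD : H704.S8.Deg 1 X D) : H704.S8.Soc2.{u} D :=
  soc2_one hD hX.2 (Or.inr (Or.inr (by decide +kernel))) sq8855

end Cfsg.Agent.H893.S8
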